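import Mathlib
import Cfsg.Agent.H737.FarDefs
import Cfsg.Agent.H736.Near

/-!
# Root involutions without planes: regularity and `M_f ∩ M_y ∩ M_p = E(y)`

For S5056, part (iii).  `R : R2 D`.

* `trans_path`: `M_p ∩ C(y)` is transitive on the lines of `y` different from `yp`.
* `line_inv`: `M_y ∩ M_a` depends only on the line of `y` and `a`.
* `gamma_path`: `M_f ∩ M_y ∩ M_p = E(y)` if there are three lines on `y`.
* the versions with coordinates: `Z_decomp`, `Z_sq`, `Z_comm`, `mem_of_comm`, `semireg`, `trans`,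
  `gamma`.
-/

set_option autoImplicit false

namespace Cfsg.Agent.H731.FarR

open Cfsg Cfsg.Agent.H737 Cfsg.Agent.H736.Hole Cfsg.Agent.H737.Far

variable {G : Type*} [Group G] {D : Set G}

/-- An element of odd order with `x ^ 4 = 1` is trivial. -/
theorem eq_one_of_odd_four {x : G} (hx : Odd (orderOf x)) (h : (x * x) * (x * x) = 1) : x = 1 := by
  have h1 : Odd (orderOf (x * x)) := by
    have h2 : orderOf (x * x) ∣ orderOf x := by
      rw [← pow_two]; exact orderOf_pow_dvd 2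
    exact Odd.of_dvd_nat hx h2
  have h3 := eq_one_of_odd_of_sq h1 h
  exact eq_one_of_odd_of_sq hx h3

theorem braid_of_cube {a b : G} (haa : a * a = 1) (hbb : b * b = 1) (h : (a * b) ^ 3 = 1) :
    a * b * a = b * a * b := by
  have h3 : a * b * (a * b) * (a * b) = 1 := by rw [← h, pow_succ, pow_two]
  calc a * b * a = a * b * a * ((b * a * b) * (b * a * b)) := by
        rw [show (b * a * b) * (b * a * b) = b * (a * (b * b) * a) * b by group, hbb, mul_one, haa,
          mul_one, hbb, mul_one]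
    _ = (a * b * (a * b) * (a * b)) * (b * a * b) := by group
    _ = b * a * b := by rw [h3, one_mul]

section basics

variable [Finite G] (R : R2 D)
include R

/-- Two members of `D` commuting with a third one are not opposite. -/
theorem not_opp_of_common {a e z : G} (ha : a ∈ D) (he : e ∈ D) (hz : z ∈ D) (haz : Commute a z)
    (hez : Commute e z) : ¬ Opp a e := by
  intro ho
  have h1 := R.comm_MG hz (mem_MG ha haz) (mem_MG he hez)
  rw [R.inv ha, R.inv he] at h1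
  have h2 := R.EG_sq hz h1
  have h3 : (a * e) * (a * e) * ((a * e) * (a * e)) = 1 := by
    have e1 : (a * e) * (a * e) = a * e * a * e := by group
    rw [e1]; exact h2
  have h4 := eq_one_of_odd_four ho.2 h3
  apply ho.1
  calc a = (a * e) * e := by rw [mul_assoc, R.sq he, mul_one]
    _ = e := by rw [h4, one_mul]

/-- Commuting members in different classes: some member commutes with the second one only. -/
theorem exists_off {a b : G} (ha : a ∈ D) (hb : b ∈ D) (hns : ¬ SimR D a b) :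
    ∃ g ∈ D, Commute g b ∧ ¬ Commute g a := by
  obtain ⟨e, he, hea, heb⟩ := exists_opp_not_opp R.h R.hc ha hb hns
  by_cases hc : Commute e b
  · exact ⟨e, he, hc, R.opp_ncomm he ha hea⟩
  · obtain ⟨z, hz, hzb, hze, -⟩ := R.exists_mid hb he (fun hh => hc hh.symm)
      (fun hh => heb (R.opp_symm hb he hh))
    refine ⟨z, hz, hzb, fun hza => ?_⟩
    exact not_opp_of_common R he ha hz hze.symm hza.symm hea

theorem ns_of {a b c : G} (ha : a ∈ D) (hb : b ∈ D) (hc : c ∈ D) (h1 : Commute c a)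
    (h2 : ¬ Commute c b) : ¬ SimR D b a := fun hs =>
  h2 (R.comm_EG ha hc h1 (R.mem_of_sim hb hs))

theorem ns_of' {a b c : G} (ha : a ∈ D) (hb : b ∈ D) (hc : c ∈ D) (h1 : Commute c a)
    (h2 : ¬ Commute c b) : ¬ SimR D a b := fun hs => ns_of R ha hb hc h1 h2 hs.symm

theorem col {a b : G} (ha : a ∈ D) (hb : b ∈ D) (h : Commute b a) (hns : ¬ SimR D b a) :
    Col D a b := ⟨ha, R.W ha hb h, hns⟩

/-- The path structure. -/
theorem path {f y p x : G} (hf : f ∈ D) (hy : y ∈ D) (hp : p ∈ D) (hx : x ∈ D)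
    (hfy : Commute f y) (hyp : Commute y p) (hpx : Commute p x) (hfp : ¬ Commute f p)
    (hyx : ¬ Commute y x) : Path D f y p x := by
  refine ⟨?_, ?_, ?_, ?_⟩
  · exact col R hy hf hfy (ns_of R hy hf hp hyp.symm (fun hh => hfp hh.symm))
  · exact col R hy hp hyp.symm (ns_of R hy hp hf hfy hfp)
  · exact col R hp hx hpx.symm (ns_of R hp hx hy hyp hyx)
  · exact R.opp_symm hf hx (R.path_opp hf hy hp hx hfy hyp hpx hfp hyx)

/-- A member of `E(f)` with product of order 3 with `x` (braid relation). -/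
theorem exists_braid {f y p x : G} (hf : f ∈ D) (hy : y ∈ D) (hp : p ∈ D) (hx : x ∈ D)
    (hfy : Commute f y) (hyp : Commute y p) (hpx : Commute p x) (hfp : ¬ Commute f p)
    (hyx : ¬ Commute y x) : ∃ f₁ ∈ D, f₁ ∈ EG D f ∧ f₁ * x * f₁ = x * f₁ * x := by
  obtain ⟨f₁, hf₁, h3⟩ := (path R hf hy hp hx hfy hyp hpx hfp hyx).exists_three R.N
  exact ⟨f₁, hf₁.1, R.mem_of_sim hf₁.1 hf₁.2, braid_of_cube (R.sq hf₁.1) (R.sq hx) h3⟩

/-- elements of `E(y)` are in `M_z` for `z` commuting with `y`. -/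
theorem EG_mem_MG {y z s : G} (hy : y ∈ D) (hz : z ∈ D) (hyz : Commute z y) (hs : s ∈ EG D y) :
    s ∈ MG D z := by
  by_cases hs1 : s = 1
  · rw [hs1]; exact one_mem _
  · exact mem_MG (R.mem_D hy hs hs1) (R.comm_EG hy hz hyz hs).symm

theorem MG_conj_fix {d g k : G} (hg : g ∈ MG D d) (hk : Commute k d) : k * g * k⁻¹ ∈ MG D d := by
  have h1 := R.MG_conj hg k
  rwa [conj_eq_of_comm hk] at h1

/-- The action of a member of `X_y` satisfying the braid relation with `x`. -/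
theorem braid_act {y p x e t : G} (hy : y ∈ D) (hp : p ∈ D) (hx : x ∈ D) (he : e ∈ D)
    (hyp : Commute y p) (hpx : Commute p x) (hyx : ¬ Commute y x) (hey : Commute e y)
    (hb : e * x * e = x * e * x) (ht : t ∈ EG D p) (hxy : x * y * x = y * t) :
    e * t * e = t * y := by
  have hxx := R.sq hx
  have hee := R.sq he
  have hty : Commute t y := (R.comm_EG hp hy hyp ht).symm
  have htx : Commute x t := R.comm_EG hp hx hpx.symm ht
  obtain ⟨a, ha, hea⟩ := R.MG_conj_eq hy (mem_MG he hey) (EG_mem_MG R hp hy hyp ht)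
  rw [R.inv he] at hea
  have h1 : e * x * e * y * (e * x * e) = y * (t * a) := by
    calc e * x * e * y * (e * x * e) = e * x * (e * y) * e * x * e := by group
      _ = e * x * (y * e) * e * x * e := by rw [hey.eq]
      _ = e * x * y * (e * e) * x * e := by group
      _ = e * (x * y * x) * e := by rw [hee]; group
      _ = (e * y) * t * e := by rw [hxy]; group
      _ = y * (e * t * e) := by rw [hey.eq]; group
      _ = y * (t * a) := by rw [hea]
  have h2 : x * e * x * y * (x * e * x) = y * (x * a * x) := by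
    calc x * e * x * y * (x * e * x) = x * e * (x * y * x) * e * x := by group
      _ = x * (e * y) * t * e * x := by rw [hxy]; group
      _ = x * y * (e * t * e) * x := by rw [hey.eq]; group
      _ = x * y * (t * a) * x := by rw [hea]
      _ = (x * y * x) * (x * t) * (a * x) := by
        calc x * y * (t * a) * x = x * y * (x * x) * (t * a) * x := by rw [hxx, mul_one]
          _ = _ := by group
      _ = (y * t) * (t * x) * (a * x) := by rw [hxy, htx.eq]
      _ = y * (t * t) * (x * a * x) := by group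
      _ = y * (x * a * x) := by rw [R.EG_sq hp ht, mul_one]
  rw [hb, h2] at h1
  have h3 : x * a * x = t * a := mul_left_cancel h1
  have hya : Commute x (y * a) := by
    show x * (y * a) = y * a * x
    have h4 : x * (y * a) * x = y * a := by
      calc x * (y * a) * x = x * y * (x * x) * a * x := by rw [hxx]; group
        _ = (x * y * x) * (x * a * x) := by group
        _ = y * t * (t * a) := by rw [hxy, h3]
        _ = y * (t * t) * a := by group
        _ = y * a := by rw [R.EG_sq hp ht, mul_one]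
    calc x * (y * a) = x * (y * a) * (x * x) := by rw [hxx, mul_one]
      _ = x * (y * a) * x * x := by group
      _ = y * a * x := by rw [h4]
  have h5 : y * a = 1 := by
    by_contra hne
    exact hyx (R.comm_of hy hx (Subgroup.mul_mem _ (R.self_mem hy) ha) hne hya).symm
  have h6 : a = y := by
    calc a = y * (y * a) := by rw [← mul_assoc, R.sq hy, one_mul]
      _ = y := by rw [h5, mul_one]
  rw [hea, h6]

/-- `M_p ∩ C(y)` is transitive on the lines of `y` different from `yp`. -/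
theorem trans_path {f y p e : G} (hf : f ∈ D) (hy : y ∈ D) (hp : p ∈ D) (he : e ∈ D)
    (hfy : Commute f y) (hyp : Commute y p) (hey : Commute e y) (hfp : ¬ Commute f p)
    (hep : ¬ Commute e p) :
    ∃ k ∈ MG D p, Commute k y ∧ Commute (k * e * k⁻¹) f := by
  have hnyp : ¬ SimR D y p := ns_of' R hy hp hf hfy hfp
  obtain ⟨x, hx, hxp, hxy'⟩ := exists_off R hy hp hnyp
  have hpx := hxp.symm
  have hyx : ¬ Commute y x := fun hh => hxy' hh.symm
  obtain ⟨f₁, hf₁, hf₁E, hbf⟩ := exists_braid R hf hy hp hx hfy hyp hpx hfp hyx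
  obtain ⟨e₁, he₁, he₁E, hbe⟩ := exists_braid R he hy hp hx hey hyp hpx hep hyx
  have hxx := R.sq hx
  have hf₁y : Commute f₁ y := (R.comm_EG hf hy hfy.symm hf₁E).symm
  have he₁y : Commute e₁ y := (R.comm_EG he hy hey.symm he₁E).symm
  have hff := R.sq hf₁
  have hee := R.sq he₁
  obtain ⟨t, ht, hxy⟩ := R.MG_conj_eq hp (mem_MG hx hxp) (mem_MG hy hyp)
  rw [R.inv hx] at hxy
  have hte := braid_act R hy hp hx he₁ hyp hpx hyx he₁y hbe ht hxy
  have htf := braid_act R hy hp hx hf₁ hyp hpx hyx hf₁y hbf ht hxy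
  have hty : Commute t y := (R.comm_EG hp hy hyp ht).symm
  have htx : Commute x t := R.comm_EG hp hx hxp ht
  have ht1 : t ≠ 1 := by
    rintro rfl
    apply hyx
    show y * x = x * y
    calc y * x = (x * x) * y * x := by rw [hxx, one_mul]
      _ = x * (x * y * x) := by group
      _ = x * y := by rw [hxy, mul_one]
  -- `k0 = f₁ e₁` commutes with `t` and `y`
  have hk0y : Commute (f₁ * e₁) y := hf₁y.mul_left he₁y
  have hk0t : Commute (f₁ * e₁) t := by
    apply comm_of_conj_eq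
    rw [mul_inv_rev, R.inv hf₁, R.inv he₁]
    calc f₁ * e₁ * t * (e₁ * f₁) = f₁ * (e₁ * t * e₁) * f₁ := by group
      _ = f₁ * (t * y) * f₁ := by rw [hte]
      _ = f₁ * t * (f₁ * f₁) * y * f₁ := by rw [hff]; group
      _ = (f₁ * t * f₁) * (f₁ * y) * f₁ := by group
      _ = (t * y) * (y * f₁) * f₁ := by rw [htf, hf₁y.eq]
      _ = t * (y * y) * (f₁ * f₁) := by group
      _ = t := by rw [R.sq hy, hff, mul_one, mul_one]
  set c : G := e₁ * x with hcdef
  have hcinv : c⁻¹ = x * e₁ := by rw [hcdef, mul_inv_rev, R.inv he₁, R.inv hx]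
  -- `c y c⁻¹ = t`
  have hcy : c * y * c⁻¹ = t := by
    rw [hcinv]
    calc e₁ * x * y * (x * e₁) = e₁ * (x * y * x) * e₁ := by group
      _ = (e₁ * y) * t * e₁ := by rw [hxy]; group
      _ = y * (e₁ * t * e₁) := by rw [he₁y.eq]; group
      _ = y * (y * t) := by rw [hte, hty.eq]
      _ = t := by rw [← mul_assoc, R.sq hy, one_mul]
  -- `c⁻¹ y c = y t`
  have hcy' : c⁻¹ * y * c = y * t := by
    rw [hcinv]
    calc x * e₁ * y * (e₁ * x) = x * (e₁ * y) * e₁ * x := by group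
      _ = x * y * (e₁ * e₁) * x := by rw [he₁y.eq]; group
      _ = y * t := by rw [hee, mul_one, hxy]
  refine ⟨c * (f₁ * e₁) * c⁻¹, ?_, ?_, ?_⟩
  · have h1 : f₁ * e₁ ∈ MG D y := mul_mem (mem_MG hf₁ hf₁y) (mem_MG he₁ he₁y)
    have h2 := R.MG_conj h1 c
    rw [hcy, R.MG_eq hp ht ht1] at h2
    exact h2
  · have h1 : Commute (f₁ * e₁) (c⁻¹ * y * c) := by rw [hcy']; exact hk0y.mul_right hk0t
    have h2 := (@conj_commute_iff G _ c (f₁ * e₁) (c⁻¹ * y * c)).2 h1
    have e1 : c * (c⁻¹ * y * c) * c⁻¹ = y := by group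
    rwa [e1] at h2
  · set k : G := c * (f₁ * e₁) * c⁻¹ with hk
    have hke : k * e₁ * k⁻¹ = e₁ * f₁ * e₁ := by
      have hkinv : k⁻¹ = c * (e₁ * f₁) * c⁻¹ := by
        rw [hk]
        calc (c * (f₁ * e₁) * c⁻¹)⁻¹ = c * (e₁⁻¹ * f₁⁻¹) * c⁻¹ := by group
          _ = _ := by rw [R.inv hf₁, R.inv he₁]
      have b1 : e₁ * x * e₁ * x * e₁ = x := by
        rw [hbe]
        calc x * e₁ * x * x * e₁ = x * e₁ * (x * x) * e₁ := by group
          _ = x * (e₁ * e₁) := by rw [hxx]; group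
          _ = x := by rw [hee, mul_one]
      have b2 : x * f₁ * x * f₁ * x = f₁ := by
        rw [← hbf]
        calc f₁ * x * f₁ * f₁ * x = f₁ * x * (f₁ * f₁) * x := by group
          _ = f₁ * (x * x) := by rw [hff]; group
          _ = f₁ := by rw [hxx, mul_one]
      rw [hkinv, hk, hcinv, hcdef]
      calc e₁ * x * (f₁ * e₁) * (x * e₁) * e₁ * (e₁ * x * (e₁ * f₁) * (x * e₁))
          = e₁ * x * f₁ * e₁ * x * (e₁ * e₁) * e₁ * x * e₁ * f₁ * x * e₁ := by group
        _ = e₁ * x * f₁ * (e₁ * x * e₁ * x * e₁) * f₁ * x * e₁ := by rw [hee]; group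
        _ = e₁ * x * f₁ * x * f₁ * x * e₁ := by rw [b1]
        _ = e₁ * (x * f₁ * x * f₁ * x) * e₁ := by group
        _ = e₁ * f₁ * e₁ := by rw [b2]
    obtain ⟨e', he', h1⟩ := R.MG_conj_eq hy (mem_MG he₁ he₁y) (mem_MG hf₁ hf₁y)
    rw [R.inv he₁] at h1
    have h2 : Commute f₁ (k * e₁ * k⁻¹) := by
      rw [hke, h1]
      exact (Commute.refl f₁).mul_right (R.comm_EG hy hf₁ hf₁y he')
    have hkeD : k * e * k⁻¹ ∈ D := R.h.conj_mem e he k
    have h3 : k * e₁ * k⁻¹ ∈ EG D (k * e * k⁻¹) := R.EG_conj he₁E k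
    have h4 : k * e₁ * k⁻¹ ≠ 1 := R.ne_one (R.h.conj_mem e₁ he₁ k)
    have h5 := R.comm_of hkeD hf₁ h3 h4 h2
    exact R.comm_of hf hkeD hf₁E (R.ne_one hf₁) h5.symm

/-- `M_y ∩ M_a` depends only on the line. -/
theorem line_inv {y a a' g : G} (hy : y ∈ D) (ha : a ∈ D) (ha' : a' ∈ D) (hay : Commute a y)
    (hns : ¬ SimR D a y) (ha'y : Commute a' y) (hns' : ¬ SimR D a' y) (haa' : Commute a' a)
    (hgy : g ∈ MG D y) (hga : g ∈ MG D a) : g ∈ MG D a' := by
  have hcol := col R hy ha hay hns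
  have hL := R.line y hy a ha a' ha' hay hns ha'y haa'
  obtain ⟨s, hs, t, ht, rfl⟩ := (R.N.mem_LS hcol).1 hL
  have ht1 : t ≠ 1 := by
    rintro rfl
    rw [mul_one] at hns' ha'
    exact hns' (R.sim hy hs (R.ne_one ha'))
  have htD := R.mem_D ha ht ht1
  have hgt : g ∈ MG D t := by rw [R.MG_eq ha ht ht1]; exact hga
  have hty : Commute t y := (R.comm_EG ha hy hay.symm ht).symm
  obtain ⟨v, hv, hvy, hva⟩ := exists_off R ha hy hns
  obtain ⟨x, hx, hxa, hxy⟩ := exists_off R hy ha (fun hh => hns hh.symm)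
  have hP := path R hv hy ha hx hvy hay.symm hxa.symm hva (fun hh => hxy hh.symm)
  have htL : t ∈ LS D y a := Subgroup.mem_sup_right ht
  have hty' : t ∉ EG D y := fun hh => ht1 (R.EG_inter hy ha (fun h0 => hns h0.symm) hh ht)
  obtain ⟨v₁, hv₁, hcm⟩ := hP.cm_bij R.N htL hty' hs
  have hv₁v₁ := R.EG_sq hv hv₁
  have hvinv : v₁⁻¹ = v₁ := inv_of_sq hv₁v₁
  have hconj : v₁ * t * v₁⁻¹ = s * t := by
    rw [hvinv, conj_eq_mul_cm (R.sq htD), hcm]
    exact (R.comm_EG hy htD hty hs).eq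
  have hv₁M : v₁ ∈ MG D y := EG_mem_MG R hv hy hvy.symm hv₁
  obtain ⟨e, he, h1⟩ := R.MG_conj_eq hy (inv_mem hv₁M) hgy
  have h2 : g * e ∈ MG D t := mul_mem hgt (EG_mem_MG R hy htD hty he)
  have h3 := R.MG_conj h2 v₁
  rw [hconj, ← h1] at h3
  have e1 : v₁ * (v₁⁻¹ * g * v₁⁻¹⁻¹) * v₁⁻¹ = g := by group
  rwa [e1] at h3

/-- `M_f ∩ M_y ∩ M_p ≤ M_w` for every third line `yw`. -/
theorem third {f y p w g : G} (hf : f ∈ D) (hy : y ∈ D) (hp : p ∈ D) (hw : w ∈ D)
    (hfy : Commute f y) (hpy : Commute p y) (hwy : Commute w y) (hfp : ¬ Commute f p)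
    (hfw : ¬ Commute f w) (hpw : ¬ Commute p w) (hgf : g ∈ MG D f) (hgy : g ∈ MG D y)
    (hgp : g ∈ MG D p) : g ∈ MG D w := by
  have key : ∀ f p : G, f ∈ D → p ∈ D → Commute f y → Commute p y → ¬ Commute f p → ¬ Commute f w →
      g ∈ MG D f → g ∈ MG D p → ∃ e ∈ EG D f, g * e ∈ MG D w := by
    intro f p hf hp hfy hpy hfp hfw hgf hgp
    obtain ⟨k, hk, hky, hkw⟩ := trans_path R hw hy hf hp hwy hfy.symm hpy (fun hh => hfw hh.symm)
      (fun hh => hfp hh.symm)
    have hp'D : k * p * k⁻¹ ∈ D := R.h.conj_mem p hp k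
    have hp'y : Commute (k * p * k⁻¹) y := by
      have := (@conj_commute_iff G _ k p y).2 hpy
      rwa [conj_eq_of_comm hky] at this
    have hkf : Commute k f := R.MG_comm hf hk (R.self_mem hf)
    have hnfp' : ¬ Commute f (k * p * k⁻¹) := by
      intro hh
      apply hfp
      have h1 : k * f * k⁻¹ = f := conj_eq_of_comm hkf
      rw [← h1] at hh
      exact conj_commute_iff.1 hh
    have hns1 : ¬ SimR D (k * p * k⁻¹) y := ns_of R hy hp'D hf hfy hnfp'
    have hns2 : ¬ SimR D w y := ns_of R hy hw hf hfy hfw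
    have h2 : k * g * k⁻¹ ∈ MG D w :=
      line_inv R hy hp'D hw hp'y hns1 hwy hns2 hkw.symm (MG_conj_fix R hgy hky) (R.MG_conj hgp k)
    obtain ⟨e, he, h3⟩ := R.MG_conj_eq hf hk hgf
    rw [h3] at h2
    exact ⟨e, he, h2⟩
  obtain ⟨a, ha, hga⟩ := key f p hf hp hfy hpy hfp hfw hgf hgp
  obtain ⟨b, hb, hgb⟩ := key p f hp hf hpy hfy (fun hh => hfp hh.symm) hpw hgp hgf
  by_cases ha1 : a = 1
  · rw [ha1, mul_one] at hga; exact hga
  by_cases hb1 : b = 1
  · rw [hb1, mul_one] at hgb; exact hgb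
  exfalso
  apply hfp
  have haD := R.mem_D hf ha ha1
  have hbD := R.mem_D hp hb hb1
  have h1 : a⁻¹ * b ∈ MG D w := by
    have e1 : a⁻¹ * b = (g * a)⁻¹ * (g * b) := by group
    rw [e1]; exact mul_mem (inv_mem hga) hgb
  have h2 : a⁻¹ * b ∈ MG D y :=
    mul_mem (inv_mem (EG_mem_MG R hf hy hfy.symm ha)) (EG_mem_MG R hp hy hpy.symm hb)
  have hns2 : ¬ SimR D w y := ns_of R hy hw hf hfy hfw
  have h3 := R.EG_inter hw hy hns2 (R.MG_sq hw h1) (R.MG_sq hy h2)
  rw [R.inv haD] at h3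
  have h4 : Commute a b := by
    show a * b = b * a
    calc a * b = (a * b * (a * b)) * (b * b)⁻¹ * (b * (a * a)⁻¹ * b⁻¹) * (b * a) := by group
      _ = b * a := by rw [h3, R.sq haD, R.sq hbD]; group
  have h5 := R.comm_of hp haD hb hb1 h4
  exact (R.comm_of hf hp ha ha1 h5.symm).symm

/-- Correction to an element centralizing `M_z`. -/
theorem correction {y z b : G} (hy : y ∈ D) (hz : z ∈ D) (hzy : Commute z y)
    (hns : ¬ SimR D z y) (hb : ∀ w ∈ D, Commute w y → b ∈ MG D w) :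
    ∃ y' ∈ EG D y, ∀ w ∈ D, Commute w z → Commute (b * y') w := by
  obtain ⟨e, he, hey, hez⟩ := exists_off R hz hy hns
  have hns' : ¬ SimR D y z := fun hh => hns hh.symm
  obtain ⟨g, hg, hgz, hgy⟩ := exists_off R hy hz hns'
  have hP := path R he hy hz hg hey hzy.symm hgz.symm hez (fun hh => hgy hh.symm)
  have hbz : b ∈ MG D z := hb z hz hzy
  obtain ⟨z₁, hz₁, hbg⟩ := R.MG_conj_eq hz hbz (mem_MG hg hgz)
  obtain ⟨y', hy', hcm⟩ := hP.f_surj R.N hz₁
  have hy'y' := R.EG_sq hy hy'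
  have hgg := R.sq hg
  have hz₁g : Commute g z₁ := R.comm_EG hz hg hgz hz₁
  have hyg : y' * g * y'⁻¹ = g * z₁ := by
    rw [inv_of_sq hy'y', hz₁g.eq, ← hcm]
    unfold cm
    calc y' * g * y' = y' * g * y' * (g * g) := by rw [hgg, mul_one]
      _ = _ := by group
  have hbz₁ : Commute b z₁ := R.MG_comm hz hbz hz₁
  have hβg : Commute (b * y') g := by
    apply comm_of_conj_eq
    calc b * y' * g * (b * y')⁻¹ = b * (y' * g * y'⁻¹) * b⁻¹ := by group
      _ = (b * g * b⁻¹) * (b * z₁ * b⁻¹) := by rw [hyg]; group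
      _ = (g * z₁) * z₁ := by rw [hbg, conj_eq_of_comm hbz₁]
      _ = g := by rw [mul_assoc, R.EG_sq hz hz₁, mul_one]
  have hbMy : ∀ k ∈ MG D y, Commute b k := by
    intro k hk
    unfold MG at hk
    induction hk using Subgroup.closure_induction with
    | mem w hw => exact R.MG_comm hw.1 (hb w hw.1 hw.2) (R.self_mem hw.1)
    | one => exact Commute.one_right b
    | mul k k' _ _ ih ih' => exact ih.mul_right ih'
    | inv k _ ih => exact ih.inv_right
  have hβz : b * y' ∈ MG D z := mul_mem hbz (EG_mem_MG R hy hz hzy hy')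
  refine ⟨y', hy', fun w hw hwz => ?_⟩
  by_cases hwy : Commute w y
  · exact (R.MG_comm hw (hb w hw hwy) (R.self_mem hw)).mul_left (R.comm_EG hy hw hwy hy').symm
  · obtain ⟨k, hk, hkz, hkg⟩ := trans_path R hg hz hy hw hgz hzy hwz hgy hwy
    have hβk : Commute (b * y') k := (hbMy k hk).mul_left (R.MG_comm hy hk hy').symm
    have hw'D : k * w * k⁻¹ ∈ D := R.h.conj_mem w hw k
    have hw'z : Commute (k * w * k⁻¹) z := by
      have := (@conj_commute_iff G _ k w z).2 hwz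
      rwa [conj_eq_of_comm hkz] at this
    have hnsg : ¬ SimR D g z := ns_of R hz hg hy hzy.symm (fun hh => hgy hh.symm)
    have hL := R.line z hz g hg _ hw'D hgz hnsg hw'z hkg
    obtain ⟨s, hs, t, ht, hst⟩ := (R.N.mem_LS (col R hz hg hgz hnsg)).1 hL
    have h1 : Commute (b * y') (k * w * k⁻¹) := by
      rw [hst]
      exact (R.MG_comm hz hβz hs).mul_right (R.comm_class hz hg hgz hnsg hβz hβg ht)
    have h2 := (@conj_commute_iff G _ k⁻¹ (b * y') (k * w * k⁻¹)).2 h1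
    rw [conj_eq_of_comm hβk.symm.inv_left] at h2
    have e1 : k⁻¹ * (k * w * k⁻¹) * k⁻¹⁻¹ = w := by group
    rwa [e1] at h2

/-- **(γ)** `M_f ∩ M_y ∩ M_p = E(y)` if there is a third line on `y`. -/
theorem gamma_path {f y p e j : G} (hf : f ∈ D) (hy : y ∈ D) (hp : p ∈ D) (he : e ∈ D)
    (hfy : Commute f y) (hpy : Commute p y) (hey : Commute e y) (hfp : ¬ Commute f p)
    (hef : ¬ Commute e f) (hep : ¬ Commute e p) (hjf : j ∈ MG D f) (hjy : j ∈ MG D y)
    (hjp : j ∈ MG D p) : j ∈ EG D y := by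
  have hnsf : ¬ SimR D f y := ns_of R hy hf hp hpy (fun hh => hfp hh.symm)
  have hnsp : ¬ SimR D p y := ns_of R hy hp hf hfy hfp
  have hnse : ¬ SimR D e y := ns_of R hy he hf hfy (fun hh => hef hh.symm)
  have hK : ∀ w ∈ D, Commute w y → j ∈ MG D w := by
    intro w hw hwy
    by_cases hs : SimR D w y
    · rw [R.MG_eq_of_sim hy hw hs]; exact hjy
    by_cases hwf : Commute w f
    · exact line_inv R hy hf hw hfy hnsf hwy hs hwf hjy hjf
    by_cases hwp : Commute w p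
    · exact line_inv R hy hp hw hpy hnsp hwy hs hwp hjy hjp
    · exact third R hf hy hp hw hfy hpy hwy hfp (fun hh => hwf hh.symm) (fun hh => hwp hh.symm)
        hjf hjy hjp
  obtain ⟨yp, hyp, hβp⟩ := correction R hy hp hpy hnsp hK
  obtain ⟨yf, hyf, hβf⟩ := correction R hy hf hfy hnsf hK
  obtain ⟨k, hk, hky, hkfe⟩ := trans_path R he hy hp hf hey hpy.symm hfy hep hfp
  have hnsyp : ¬ SimR D y p := fun hh => hnsp hh.symm
  have hkE : ∀ s ∈ EG D y, Commute k s := fun s hs =>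
    R.comm_class hp hy hpy.symm hnsyp hk hky hs
  have hβpk : Commute (j * yp) k := by
    unfold MG at hk
    clear hkfe hkE hky
    induction hk using Subgroup.closure_induction with
    | mem w hw => exact hβp w hw.1 hw.2
    | one => exact Commute.one_right _
    | mul k k' _ _ ih ih' => exact ih.mul_right ih'
    | inv k _ ih => exact ih.inv_right
  have hjk : Commute j k := by
    have e1 : j = (j * yp) * yp⁻¹ := by group
    rw [e1]; exact hβpk.mul_left (hkE yp hyp).symm.inv_left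
  have hβfk : Commute (j * yf) k := hjk.mul_left (hkE yf hyf).symm
  set e' : G := k * f * k⁻¹ with he'def
  have he'D : e' ∈ D := R.h.conj_mem f hf k
  have he'y : Commute e' y := by
    have := (@conj_commute_iff G _ k f y).2 hfy
    rwa [conj_eq_of_comm hky] at this
  have hβe' : ∀ w ∈ D, Commute w e' → Commute (j * yf) w := by
    intro w hw hwe
    have h1 : Commute (k⁻¹ * w * k⁻¹⁻¹) f := by
      have h2 := (@conj_commute_iff G _ k⁻¹ w e').2 hwe
      have e1 : k⁻¹ * e' * k⁻¹⁻¹ = f := by rw [he'def]; group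
      rwa [e1] at h2
    have h3 := hβf _ (R.h.conj_mem w hw k⁻¹) h1
    have h4 := (@conj_commute_iff G _ k _ _).2 h3
    rw [conj_eq_of_comm hβfk.symm] at h4
    have e1 : k * (k⁻¹ * w * k⁻¹⁻¹) * k⁻¹ = w := by group
    rwa [e1] at h4
  have hnfe' : ¬ Commute f e' := by
    intro hh
    have hns' : ¬ SimR D e' y := by
      intro hs
      have h1 : Commute p e' := (R.comm_EG hy hp hpy (R.mem_of_sim he'D hs))
      have h2 := (@conj_commute_iff G _ k⁻¹ p e').2 h1
      have e1 : k⁻¹ * e' * k⁻¹⁻¹ = f := by rw [he'def]; group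
      have hkp : Commute k p := R.MG_comm hp hk (R.self_mem hp)
      rw [e1, conj_eq_of_comm hkp.inv_left] at h2
      exact hfp h2.symm
    have hL := R.line y hy f hf e' he'D hfy hnsf he'y hh.symm
    obtain ⟨s, hs, t, ht, hst⟩ := (R.N.mem_LS (col R hy hf hfy hnsf)).1 hL
    have ht1 : t ≠ 1 := by
      rintro rfl
      rw [mul_one] at hst
      apply hns'
      rw [hst]
      exact R.sim hy hs (by rw [← hst]; exact R.ne_one he'D)
    apply hef
    refine R.comm_of hf he ht ht1 ?_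
    have e1 : t = s⁻¹ * e' := by rw [hst]; group
    rw [e1]
    exact (R.comm_EG hy he hey hs).inv_right.mul_right hkfe.symm
  have hnse' : ¬ SimR D y e' := ns_of' R hy he'D hf hfy hnfe'
  obtain ⟨g, hg, hge, hgy⟩ := exists_off R hy he'D hnse'
  have hopp : Opp g f := R.opp_symm hf hg (R.path_opp hf hy he'D hg hfy he'y.symm hge.symm hnfe'
    (fun hh => hgy hh.symm))
  have hone : j * yf = 1 := by
    refine R.central f hf g hg hopp (j * yf) ?_ (hβe' g hg hge)
    intro k' hk'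
    unfold MG at hk'
    induction hk' using Subgroup.closure_induction with
    | mem w hw => exact hβf w hw.1 hw.2
    | one => exact Commute.one_right _
    | mul k k' _ _ ih ih' => exact ih.mul_right ih'
    | inv k _ ih => exact ih.inv_right
  have h1 : j = yf⁻¹ := eq_inv_of_mul_eq_one_left hone
  rw [h1]; exact inv_mem hyf

end basics

/-! ### The versions with coordinates -/

section coords

variable {F : Type} [Field F] [Fintype F] {f y p x : F → G}

theorem add_zero' {g : F → G} (h : ∀ s t, g (s + t) = g s * g t) : g 0 = 1 := by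
  have h1 := h 0 0
  rw [add_zero] at h1
  exact (mul_eq_left.1 h1.symm)

theorem nc_sq (c : NC D f y p x) {g : F → G} (h : ∀ s t, g (s + t) = g s * g t) (s : F) :
    g s * g s = 1 := by
  rw [← h, c.two, add_zero' h]

theorem nc_inv (c : NC D f y p x) {g : F → G} (h : ∀ s t, g (s + t) = g s * g t) (s : F) :
    (g s)⁻¹ = g s := inv_of_sq (nc_sq c h s)

theorem nc_comm {g : F → G} (h : ∀ s t, g (s + t) = g s * g t) (s t : F) :
    Commute (g s) (g t) := by
  show g s * g t = g t * g s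
  rw [← h, ← h, add_comm]

theorem nc_w1 (c : NC D f y p x) : f 1 * x 1 * f 1 = x 1 * f 1 * x 1 := by
  have := c.fx 1 one_ne_zero
  rwa [inv_one] at this

variable [Finite G] (R : R2 D)
include R

theorem nc_ne_one (c : NC D f y p x) {g : F → G} (hD : ∀ s, s ≠ 0 → g s ∈ D) {s : F}
    (hs : s ≠ 0) : g s ≠ 1 := R.ne_one (hD s hs)

theorem nc_fp (c : NC D f y p x) : ¬ Commute (f 1) (p 1) := by
  intro h
  have h1 := c.fp 1 1
  rw [h.eq, mul_assoc, nc_sq c c.f_add, mul_one, mul_one] at h1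
  exact R.ne_one (c.y_D 1 one_ne_zero) (mul_eq_left.1 h1.symm)

theorem nc_yx (c : NC D f y p x) : ¬ Commute (y 1) (x 1) := by
  intro h
  have h1 := c.xy 1 1
  rw [← h.eq, mul_assoc, nc_sq c c.x_add, mul_one, mul_one] at h1
  exact R.ne_one (c.p_D 1 one_ne_zero) (mul_eq_left.1 h1.symm)

theorem nc_ns_yp (c : NC D f y p x) : ¬ SimR D (y 1) (p 1) :=
  ns_of' R (c.y_D 1 one_ne_zero) (c.p_D 1 one_ne_zero) (c.f_D 1 one_ne_zero) (c.fy 1 1) (nc_fp R c)

theorem nc_ns_fy (c : NC D f y p x) : ¬ SimR D (f 1) (y 1) :=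
  ns_of R (c.y_D 1 one_ne_zero) (c.f_D 1 one_ne_zero) (c.p_D 1 one_ne_zero) (c.yp 1 1).symm
    (fun hh => nc_fp R c hh.symm)

theorem nc_ns_xp (c : NC D f y p x) : ¬ SimR D (x 1) (p 1) :=
  ns_of R (c.p_D 1 one_ne_zero) (c.x_D 1 one_ne_zero) (c.y_D 1 one_ne_zero) (c.yp 1 1)
    (nc_yx R c)

theorem nc_y_MGp (c : NC D f y p x) (t : F) : y t ∈ MG D (p 1) :=
  EG_mem_MG R (c.y_D 1 one_ne_zero) (c.p_D 1 one_ne_zero) (c.yp 1 1).symm
    ((c.y_iff _).2 ⟨t, rfl⟩)

theorem nc_p_MGy (c : NC D f y p x) (t : F) : p t ∈ MG D (y 1) :=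
  EG_mem_MG R (c.p_D 1 one_ne_zero) (c.y_D 1 one_ne_zero) (c.yp 1 1)
    ((c.p_iff _).2 ⟨t, rfl⟩)

theorem nc_y_MGy (c : NC D f y p x) (t : F) : y t ∈ MG D (y 1) :=
  R.EG_le_MG (c.y_D 1 one_ne_zero) ((c.y_iff _).2 ⟨t, rfl⟩)

theorem nc_p_MGp (c : NC D f y p x) (t : F) : p t ∈ MG D (p 1) :=
  R.EG_le_MG (c.p_D 1 one_ne_zero) ((c.p_iff _).2 ⟨t, rfl⟩)

theorem nc_f_MGy (c : NC D f y p x) : f 1 ∈ MG D (y 1) :=
  mem_MG (c.f_D 1 one_ne_zero) (c.fy 1 1)

theorem nc_x_MGp (c : NC D f y p x) : x 1 ∈ MG D (p 1) :=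
  mem_MG (c.x_D 1 one_ne_zero) (c.px 1 1).symm

theorem Z_sq (c : NC D f y p x) {z : G} (h1 : z ∈ MG D (y 1)) (h2 : z ∈ MG D (p 1)) :
    z * z = 1 :=
  R.EG_inter (c.y_D 1 one_ne_zero) (c.p_D 1 one_ne_zero) (nc_ns_yp R c)
    (R.MG_sq (c.y_D 1 one_ne_zero) h1) (R.MG_sq (c.p_D 1 one_ne_zero) h2)

theorem Z_comm (c : NC D f y p x) {z z' : G} (h1 : z ∈ MG D (y 1)) (h2 : z ∈ MG D (p 1))
    (h1' : z' ∈ MG D (y 1)) (h2' : z' ∈ MG D (p 1)) : Commute z z' := by
  have h3 := R.EG_inter (c.y_D 1 one_ne_zero) (c.p_D 1 one_ne_zero) (nc_ns_yp R c)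
    (R.comm_MG (c.y_D 1 one_ne_zero) h1 h1') (R.comm_MG (c.p_D 1 one_ne_zero) h2 h2')
  show z * z' = z' * z
  calc z * z' = (z * z' * z⁻¹ * z'⁻¹) * (z' * z) := by group
    _ = z' * z := by rw [h3, one_mul]

theorem mem_BG (c : NC D f y p x) {b : G} : b ∈ BG D f y p x ↔
    b ∈ MG D (y 1) ∧ b ∈ MG D (p 1) ∧ (∀ s, Commute b (f s)) ∧ (∀ s, Commute b (x s)) := by
  unfold BG
  rw [Subgroup.mem_inf, Subgroup.mem_inf, Subgroup.mem_centralizer_iff]
  constructor
  · rintro ⟨⟨h1, h2⟩, h3⟩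
    exact ⟨h1, h2, fun s => (h3 _ (Or.inl ⟨s, rfl⟩)).symm, fun s => (h3 _ (Or.inr ⟨s, rfl⟩)).symm⟩
  · rintro ⟨h1, h2, h3, h4⟩
    refine ⟨⟨h1, h2⟩, ?_⟩
    rintro _ (⟨s, rfl⟩ | ⟨s, rfl⟩)
    · exact (h3 s).eq.symm
    · exact (h4 s).eq.symm

/-- `B`-decomposition of `M_y ∩ M_p`. -/
theorem Z_decomp (c : NC D f y p x) {z : G} (h1 : z ∈ MG D (y 1)) (h2 : z ∈ MG D (p 1)) :
    ∃ u v : F, ∃ b ∈ BG D f y p x, z = y u * p v * b := by
  have hy := c.y_D 1 one_ne_zero
  have hp := c.p_D 1 one_ne_zero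
  have hf := c.f_D 1 one_ne_zero
  have hx := c.x_D 1 one_ne_zero
  obtain ⟨e, he, hze⟩ := R.MG_conj_eq hy (nc_f_MGy R c) h1
  obtain ⟨r, rfl⟩ := (c.y_iff _).1 he
  rw [nc_inv c c.f_add] at hze
  -- `z' = z p_r` commutes with `f 1`
  have hz'1 : z * p r ∈ MG D (y 1) := mul_mem h1 (nc_p_MGy R c r)
  have hz'2 : z * p r ∈ MG D (p 1) := mul_mem h2 (nc_p_MGp R c r)
  have hfp := c.fp 1 r
  rw [one_mul] at hfp
  have hz'f : Commute (z * p r) (f 1) := by
    apply Commute.symm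
    apply comm_of_conj_eq
    rw [nc_inv c c.f_add]
    calc f 1 * (z * p r) * f 1 = f 1 * z * (f 1 * f 1) * p r * f 1 := by
          rw [nc_sq c c.f_add]; group
      _ = (f 1 * z * f 1) * (f 1 * p r * f 1) := by group
      _ = z * y r * (p r * y r) := by rw [hze, hfp]
      _ = z * (y r * p r) * y r := by group
      _ = z * p r * (y r * y r) := by rw [(c.yp r r).eq]; group
      _ = z * p r := by rw [nc_sq c c.y_add, mul_one]
  obtain ⟨e', he', hxe⟩ := R.MG_conj_eq hp (nc_x_MGp R c) hz'2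
  obtain ⟨v, rfl⟩ := (c.p_iff _).1 he'
  rw [nc_inv c c.x_add] at hxe
  have hxy := c.xy 1 v
  rw [one_mul] at hxy
  have hz''1 : z * p r * y v ∈ MG D (y 1) := mul_mem hz'1 (nc_y_MGy R c v)
  have hz''2 : z * p r * y v ∈ MG D (p 1) := mul_mem hz'2 (nc_y_MGp R c v)
  have hz''x : Commute (z * p r * y v) (x 1) := by
    apply Commute.symm
    apply comm_of_conj_eq
    rw [nc_inv c c.x_add]
    calc x 1 * (z * p r * y v) * x 1 = x 1 * (z * p r) * (x 1 * x 1) * y v * x 1 := by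
          rw [nc_sq c c.x_add]; group
      _ = (x 1 * (z * p r) * x 1) * (x 1 * y v * x 1) := by group
      _ = z * p r * p v * (y v * p v) := by rw [hxe, hxy]
      _ = z * p r * (p v * y v) * p v := by group
      _ = z * p r * y v * (p v * p v) := by rw [← (c.yp v v).eq]; group
      _ = z * p r * y v := by rw [nc_sq c c.p_add, mul_one]
  have hz''f : Commute (z * p r * y v) (f 1) := hz'f.mul_left (c.fy 1 v).symm
  refine ⟨v, r, z * p r * y v, (mem_BG R c).2 ⟨hz''1, hz''2, fun s => ?_, fun s => ?_⟩, ?_⟩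
  · exact R.comm_class hy hf (c.fy 1 1) (nc_ns_fy R c) hz''1 hz''f ((c.f_iff _).2 ⟨s, rfl⟩)
  · exact R.comm_class hp hx (c.px 1 1).symm (nc_ns_xp R c) hz''2 hz''x ((c.x_iff _).2 ⟨s, rfl⟩)
  · have h3 : Commute (p r) z := Z_comm R c (nc_p_MGy R c r) (nc_p_MGp R c r) h1 h2
    have h4 : Commute (y v) (z * p r) :=
      Z_comm R c (nc_y_MGy R c v) (nc_y_MGp R c v) hz'1 hz'2
    calc z = (y v * y v) * (p r * p r) * z := by
          rw [nc_sq c c.y_add, nc_sq c c.p_add]; group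
      _ = y v * (y v * p r) * (p r * z) := by group
      _ = y v * (p r * y v) * (z * p r) := by rw [(c.yp v r).eq, h3.eq]
      _ = y v * p r * (y v * (z * p r)) := by group
      _ = y v * p r * (z * p r * y v) := by rw [h4.eq]

/-- an element of `M_p ∩ C(y) ∩ C(f₁)` lies in `M_y`. -/
theorem mem_of_comm (c : NC D f y p x) {k : G} (hk : k ∈ MG D (p 1))
    (hky : Commute k (y 1)) (hkf : Commute k (f 1)) : k ∈ MG D (y 1) := by
  have hy := c.y_D 1 one_ne_zero
  have hp := c.p_D 1 one_ne_zero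
  have hf := c.f_D 1 one_ne_zero
  have hx := c.x_D 1 one_ne_zero
  obtain ⟨e, he, hke⟩ := R.MG_conj_eq hp hk (nc_x_MGp R c)
  obtain ⟨r, rfl⟩ := (c.p_iff _).1 he
  have hxy := c.xy 1 r
  rw [one_mul] at hxy
  have hxx := nc_sq c c.x_add 1
  have hyx : y r * x 1 * y r = x 1 * p r := by
    calc y r * x 1 * y r = (x 1 * x 1) * (y r * x 1 * y r) := by rw [hxx, one_mul]
      _ = x 1 * (x 1 * y r * x 1) * y r := by group
      _ = x 1 * (y r * p r) * y r := by rw [hxy]
      _ = x 1 * (p r * y r) * y r := by rw [(c.yp r r).eq]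
      _ = x 1 * p r * (y r * y r) := by group
      _ = x 1 * p r := by rw [nc_sq c c.y_add, mul_one]
  set k' : G := y r * k with hk'
  have hk'M : k' ∈ MG D (p 1) := mul_mem (nc_y_MGp R c r) hk
  have hk'x : Commute k' (x 1) := by
    apply comm_of_conj_eq
    calc k' * x 1 * k'⁻¹ = y r * (k * x 1 * k⁻¹) * (y r)⁻¹ := by rw [hk']; group
      _ = y r * (x 1 * p r) * y r := by rw [hke, nc_inv c c.y_add]
      _ = y r * x 1 * (p r * y r) := by group
      _ = y r * x 1 * (y r * p r) := by rw [(c.yp r r).eq]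
      _ = (y r * x 1 * y r) * p r := by group
      _ = x 1 * p r * p r := by rw [hyx]
      _ = x 1 := by rw [mul_assoc, nc_sq c c.p_add, mul_one]
  have hk'f : Commute k' (f 1) := (c.fy 1 r).symm.mul_left hkf
  set w : G := f 1 * x 1 * f 1 with hw
  have hk'w : Commute k' w := (hk'f.mul_right hk'x).mul_right hk'f
  have hwinv : w⁻¹ = f 1 * x 1 * f 1 := by
    rw [hw]
    calc (f 1 * x 1 * f 1)⁻¹ = (f 1)⁻¹ * (x 1)⁻¹ * (f 1)⁻¹ := by group
      _ = _ := by rw [nc_inv c c.f_add, nc_inv c c.x_add]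
  have hwp : w * p 1 * w⁻¹ = y 1 := by
    have h1 := c.fp 1 1
    have h2 := c.xy 1 1
    rw [one_mul] at h1 h2
    have hxp : x 1 * p 1 * x 1 = p 1 := by
      rw [← (c.px 1 1).eq, mul_assoc, hxx, mul_one]
    have hfy : f 1 * y 1 * f 1 = y 1 := by
      rw [(c.fy 1 1).eq, mul_assoc, nc_sq c c.f_add, mul_one]
    rw [hwinv, hw]
    calc f 1 * x 1 * f 1 * p 1 * (f 1 * x 1 * f 1)
        = f 1 * (x 1 * (f 1 * p 1 * f 1) * x 1) * f 1 := by group
      _ = f 1 * (x 1 * (p 1 * y 1) * x 1) * f 1 := by rw [h1]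
      _ = f 1 * (x 1 * p 1 * (x 1 * x 1) * y 1 * x 1) * f 1 := by rw [hxx]; group
      _ = f 1 * ((x 1 * p 1 * x 1) * (x 1 * y 1 * x 1)) * f 1 := by group
      _ = f 1 * (p 1 * (y 1 * p 1)) * f 1 := by rw [hxp, h2]
      _ = f 1 * (p 1 * (p 1 * y 1)) * f 1 := by rw [(c.yp 1 1).eq]
      _ = f 1 * ((p 1 * p 1) * y 1) * f 1 := by group
      _ = y 1 := by rw [nc_sq c c.p_add, one_mul, hfy]
  have h1 := R.MG_conj hk'M w
  rw [hwp, conj_eq_of_comm hk'w.symm] at h1
  have e1 : k = (y r)⁻¹ * k' := by rw [hk']; group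
  rw [e1]; exact mul_mem (inv_mem (nc_y_MGy R c r)) h1

/-- `C_{M_p}(y)/(M_y ∩ M_p)` acts semiregularly on the lines of `y` other than `yp`. -/
theorem semireg (c : NC D f y p x) {k : G} (hk : k ∈ MG D (p 1))
    (hky : Commute k (y 1)) (hkf : Commute (k * f 1 * k⁻¹) (f 1)) : k ∈ MG D (y 1) := by
  have hy := c.y_D 1 one_ne_zero
  have hp := c.p_D 1 one_ne_zero
  have hf := c.f_D 1 one_ne_zero
  have hf'D : k * f 1 * k⁻¹ ∈ D := R.h.conj_mem _ hf k
  have hf'y : Commute (k * f 1 * k⁻¹) (y 1) := by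
    have := (@conj_commute_iff G _ k (f 1) (y 1)).2 (c.fy 1 1)
    rwa [conj_eq_of_comm hky] at this
  have hL := R.line _ hy _ hf _ hf'D (c.fy 1 1) (nc_ns_fy R c) hf'y hkf
  obtain ⟨a, ha, b, hb, hab⟩ :=
    (R.N.mem_LS (col R hy hf (c.fy 1 1) (nc_ns_fy R c))).1 hL
  obtain ⟨t, rfl⟩ := (c.y_iff _).1 ha
  obtain ⟨s, rfl⟩ := (c.f_iff _).1 hb
  have hkp : Commute k (p 1) := R.MG_comm hp hk (R.self_mem hp)
  have hff := nc_sq c c.f_add
  -- action on `p 1`
  have hfp1 := c.fp 1 1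
  have hfps := c.fp s 1
  rw [mul_one] at hfps hfp1
  have a1 : (k * f 1 * k⁻¹) * p 1 * (k * f 1 * k⁻¹)⁻¹ = p 1 * y 1 := by
    calc (k * f 1 * k⁻¹) * p 1 * (k * f 1 * k⁻¹)⁻¹
        = k * (f 1 * (k⁻¹ * p 1 * k⁻¹⁻¹) * (f 1)⁻¹) * k⁻¹ := by group
      _ = k * (f 1 * p 1 * f 1) * k⁻¹ := by
          rw [conj_eq_of_comm hkp.inv_left, nc_inv c c.f_add]
      _ = k * (p 1 * y 1) * k⁻¹ := by rw [hfp1]
      _ = p 1 * y 1 := conj_eq_of_comm (hkp.mul_right hky)
  have a2 : (y t * f s) * p 1 * (y t * f s)⁻¹ = p 1 * y s := by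
    calc (y t * f s) * p 1 * (y t * f s)⁻¹ = y t * (f s * p 1 * (f s)⁻¹) * (y t)⁻¹ := by group
      _ = y t * (p 1 * y s) * (y t)⁻¹ := by rw [nc_inv c c.f_add, hfps]
      _ = p 1 * y s := conj_eq_of_comm ((c.yp t 1).mul_right (nc_comm c.y_add t s))
  rw [hab, a2] at a1
  have a3 : y s = y 1 := mul_left_cancel a1
  have hs : s = 1 := by
    by_contra hne
    have h1 : s + 1 ≠ 0 := by
      intro h0
      apply hne
      calc s = s + (1 + 1) := by rw [c.two, add_zero]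
        _ = (s + 1) + 1 := by ring
        _ = 1 := by rw [h0, zero_add]
    have h2 : y (s + 1) = 1 := by rw [c.y_add, a3, nc_sq c c.y_add]
    exact nc_ne_one R c c.y_D h1 h2
  subst hs
  -- `p_t k` commutes with `f 1`
  have hfpt := c.fp 1 t
  rw [one_mul] at hfpt
  have hpf : p t * (y t * f 1) * p t = f 1 := by
    calc p t * (y t * f 1) * p t = (p t * y t) * ((f 1 * p t * f 1) * f 1) := by
          have : f 1 * p t * f 1 * f 1 = f 1 * p t := by rw [mul_assoc, hff, mul_one]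
          rw [this]; group
      _ = (y t * p t) * ((p t * y t) * f 1) := by rw [(c.yp t t).eq, hfpt]
      _ = y t * (p t * p t) * y t * f 1 := by group
      _ = (y t * y t) * f 1 := by rw [nc_sq c c.p_add]; group
      _ = f 1 := by rw [nc_sq c c.y_add, one_mul]
  have h1 : Commute (p t * k) (f 1) := by
    apply comm_of_conj_eq
    calc p t * k * f 1 * (p t * k)⁻¹ = p t * (k * f 1 * k⁻¹) * (p t)⁻¹ := by group
      _ = f 1 := by rw [hab, nc_inv c c.p_add, hpf]
  have h2 : Commute (p t * k) (y 1) := (c.yp 1 t).symm.mul_left hky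
  have h3 := mem_of_comm R c (mul_mem (nc_p_MGp R c t) hk) h2 h1
  have e1 : k = (p t)⁻¹ * (p t * k) := by group
  rw [e1]; exact mul_mem (inv_mem (nc_p_MGy R c t)) h3

/-- ... and transitively. -/
theorem trans (c : NC D f y p x) {e : G} (he : e ∈ D) (hey : Commute e (y 1))
    (hep : ¬ Commute e (p 1)) :
    ∃ k ∈ MG D (p 1), Commute k (y 1) ∧ Commute (k * e * k⁻¹) (f 1) :=
  trans_path R (c.f_D 1 one_ne_zero) (c.y_D 1 one_ne_zero) (c.p_D 1 one_ne_zero) he (c.fy 1 1)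
    (c.yp 1 1) hey (nc_fp R c) hep

/-- (γ) `M_f ∩ M_y ∩ M_p = E(y)` if there is a third line on `y`. -/
theorem gamma (c : NC D f y p x) {e : G} (he : e ∈ D) (hey : Commute e (y 1))
    (hep : ¬ Commute e (p 1)) (hef : ¬ Commute e (f 1)) {j : G} (hjf : j ∈ MG D (f 1))
    (hjy : j ∈ MG D (y 1)) (hjp : j ∈ MG D (p 1)) : j ∈ EG D (y 1) :=
  gamma_path R (c.f_D 1 one_ne_zero) (c.y_D 1 one_ne_zero) (c.p_D 1 one_ne_zero) he (c.fy 1 1)
    (c.yp 1 1).symm hey (nc_fp R c) hef hep hjf hjy hjp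

end coords

end Cfsg.Agent.H731.FarR

/-! ### The same statements under the names of the skeleton -/

namespace Cfsg.Agent.H737.Far

open Cfsg Cfsg.Agent.H737 Cfsg.Agent.H736.Hole

variable {G : Type*} [Group G] {D : Set G} {F : Type} [Field F] [Fintype F]

variable [Finite G]

variable {f y p x : F → G}

/-- `B`-decomposition of `M_y ∩ M_p`. -/
theorem Z_decomp (R : R2 D) (c : NC D f y p x) {z : G} (h1 : z ∈ MG D (y 1)) (h2 : z ∈ MG D (p 1)) :
    ∃ u v : F, ∃ b ∈ BG D f y p x, z = y u * p v * b := H731.FarR.Z_decomp R c h1 h2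

theorem Z_sq (R : R2 D) (c : NC D f y p x) {z : G} (h1 : z ∈ MG D (y 1)) (h2 : z ∈ MG D (p 1)) :
    z * z = 1 := H731.FarR.Z_sq R c h1 h2

theorem Z_comm (R : R2 D) (c : NC D f y p x) {z z' : G} (h1 : z ∈ MG D (y 1)) (h2 : z ∈ MG D (p 1))
    (h1' : z' ∈ MG D (y 1)) (h2' : z' ∈ MG D (p 1)) : Commute z z' :=
  H731.FarR.Z_comm R c h1 h2 h1' h2'

/-- an element of `M_p ∩ C(y) ∩ C(f₁)` lies in `M_y`. -/
theorem mem_of_comm (R : R2 D) (c : NC D f y p x) {k : G} (hk : k ∈ MG D (p 1))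
    (hky : Commute k (y 1)) (hkf : Commute k (f 1)) : k ∈ MG D (y 1) :=
  H731.FarR.mem_of_comm R c hk hky hkf

/-- `C_{M_p}(y)/(M_y ∩ M_p)` acts semiregularly on the lines of `y` other than `yp`. -/
theorem semireg (R : R2 D) (c : NC D f y p x) {k : G} (hk : k ∈ MG D (p 1))
    (hky : Commute k (y 1)) (hkf : Commute (k * f 1 * k⁻¹) (f 1)) : k ∈ MG D (y 1) :=
  H731.FarR.semireg R c hk hky hkf

/-- ... and transitively. -/
theorem trans (R : R2 D) (c : NC D f y p x) {e : G} (he : e ∈ D) (hey : Commute e (y 1))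
    (hep : ¬ Commute e (p 1)) :
    ∃ k ∈ MG D (p 1), Commute k (y 1) ∧ Commute (k * e * k⁻¹) (f 1) :=
  H731.FarR.trans R c he hey hep

/-- (γ) `M_f ∩ M_y ∩ M_p = E(y)` if there is a third line on `y`. -/
theorem gamma (R : R2 D) (c : NC D f y p x) {e : G} (he : e ∈ D) (hey : Commute e (y 1))
    (hep : ¬ Commute e (p 1)) (hef : ¬ Commute e (f 1)) {j : G} (hjf : j ∈ MG D (f 1))
    (hjy : j ∈ MG D (y 1)) (hjp : j ∈ MG D (p 1)) : j ∈ EG D (y 1) :=
  H731.FarR.gamma R c he hey hep hef hjf hjy hjp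

end Cfsg.Agent.H737.Far
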