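import Cfsg.Agent.H731.FarA2
import Cfsg.Agent.H731.FarR
import Cfsg.Agent.H738.RootFin

/-!
# S5056: final assembly, given `no_far`

`r2_of`: a far pair gives the rank 2 setting `R2 D`; `root_involution_of_no_far`: S5056 from the
theorem `no_far` for this group.
-/

set_option autoImplicit false

universe u

namespace Cfsg.Agent.H731.FarFin

open Cfsg Cfsg.Agent.H737 Cfsg.Agent.H736.Hole Cfsg.Agent.H737.Far Cfsg.Agent.H731.FarR

variable {G : Type u} [Group G] [Finite G] {D : Set G}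

/-- A far pair gives the rank 2 setting. -/
theorem r2_of (hD : IsNondegenerateRootInvolutionSet D) (hcl : IsRootInvolutionClass D)
    (hO : pCore 2 G = ⊥) (hZ : Subgroup.center G = ⊥)
    (hq : ∀ d ∈ D, 4 ≤ Nat.card (EG D d)) (hB : Cfsg.Agent.H731.FarQ.HasFar D) : R2 D := by
  have N := Cfsg.Agent.H736.Hole.nd_of hD hcl hO hZ
  have H := Cfsg.Agent.H731.FarQ.fc_of hD hcl hO hZ
  have L := Cfsg.Agent.H739.lg_of hD hcl hO hZ
  have four : ∀ c ∈ D, ∀ z ∈ D, Commute z c → z ≠ c → z * c ∈ D :=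
    fun c hc z hz h1 h2 => H.mul_mem_of_commute hB hc hz h1 h2
  refine ⟨N, four, ?_, ?_, fun d hd => lt_of_lt_of_le (by norm_num) (hq d hd), ?_⟩
  · intro a ha b hb c hc hba hns hca hcb
    exact H.mem_sup_of_commute hB ha hb hc hba hca hcb (fun hE => hns hE.2)
  · intro d hd x hx ho g h1 h2
    refine L.gen d hd x hx (Opp.symm' N.h hx hd ho) g (fun z hz => ?_) h2
    exact h1 z (mem_MG hz.2.1 hz.2.2.1.symm)
  · rintro f hf x hx ⟨ho, y, hy, hyf, hyx⟩
    have h := N.h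
    have hns : ¬ SimR D y f := fun hs => hyx (Opp.symm' h hx hy ((hs x hx).2 (Opp.symm' h hf hx ho)))
    have hne : y ≠ f := by
      rintro rfl
      exact hyx ho
    have hc : Cfsg.Agent.H736.Hole.Col D f y := N.col_of hf hy hyf (four f hf y hy hyf hne) hns
    have hnc : ¬ Commute y x := by
      intro hcom
      exact (N.col_symm hc).2.1.2.2 x hx hcom.symm (Opp.symm' h hf hx ho)
    have h5 : orderOf (y * x) = 4 := (order_four_of h hy hx hnc hyx).1
    exact Cfsg.Agent.H738.near_psl2 N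
      (Cfsg.Agent.H738.path_of_near N hx (Opp.symm' h hf hx ho) hc h5) (hq f hf)

/-- The statement of `no_far` for one class. -/
def NoFarThm (D : Set G) : Prop :=
  R2 D → ∀ f₀ x₀ d y₀ : G, f₀ ∈ D → x₀ ∈ D → d ∈ D → y₀ ∈ D → Opp f₀ x₀ → Commute y₀ f₀ →
    ¬ Opp y₀ x₀ → ¬ SimR D y₀ f₀ → Commute d f₀ → ¬ SimR D d f₀ → Opp d x₀ →
    (∀ z ∈ D, Commute z d → Opp z x₀) → False

/-- No far pairs for `q ≥ 4`. -/
theorem not_hasFar (hD : IsNondegenerateRootInvolutionSet D) (hcl : IsRootInvolutionClass D)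
    (hO : pCore 2 G = ⊥) (hZ : Subgroup.center G = ⊥)
    (hNF : NoFarThm D) {d : G} (hd : d ∈ D) (hq : 4 ≤ Nat.card (EG D d)) :
    ¬ Cfsg.Agent.H731.FarQ.HasFar D := by
  intro hB
  have N := Cfsg.Agent.H736.Hole.nd_of hD hcl hO hZ
  have H := Cfsg.Agent.H731.FarQ.fc_of hD hcl hO hZ
  have hq' : ∀ a ∈ D, 4 ≤ Nat.card (EG D a) := fun a ha => by
    rw [N.card_EG ha hd]; exact hq
  have R := r2_of hD hcl hO hZ hq' hB
  obtain ⟨f, hf, x, hx, d', hd', y, hy, h1, h2, h3, h4, h5, h6, h7, h8, -, h9⟩ :=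
    H.exists_near_far hB
  exact hNF R f x d' y hf hx hd' hy h1 h2 h4 (fun hs => h3 ⟨hy, hs⟩) h6
    (fun hs => h7 ⟨hd', hs⟩) h8 h9

theorem nearThm (hD : IsNondegenerateRootInvolutionSet D) (hcl : IsRootInvolutionClass D)
    (hO : pCore 2 G = ⊥) (hZ : Subgroup.center G = ⊥) (hNF : NoFarThm D) :
    Cfsg.Agent.H738.Glue.NearThm D :=
  Cfsg.Agent.H738.Glue.near_of_no_far hD hcl hO hZ
    (fun _ hd hq hB => not_hasFar hD hcl hO hZ hNF hd hq hB)

end Cfsg.Agent.H731.FarFin
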